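import Mathlib

/-!
Classes modulo twice the lattice for an even form in rank 24 without norm 2 and with given vector counts.
-/

set_option autoImplicit false

namespace Cfsg.Lib.CosetCount

open Matrix

variable (B : Matrix (Fin 24) (Fin 24) ℤ)

/-- The norm. -/
def q (x : Fin 24 → ℤ) : ℤ := x ⬝ᵥ (B *ᵥ x)

/-- Reduction modulo two. -/
def red (x : Fin 24 → ℤ) : Fin 24 → ZMod 2 := fun i => (x i : ZMod 2)

variable {B}

theorem red_eq_iff {x y : Fin 24 → ℤ} : red x = red y ↔ ∀ i, (2 : ℤ) ∣ (x - y) i := by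
  simp only [funext_iff, red, Pi.sub_apply]
  refine forall_congr' fun i => ?_
  rw [ZMod.intCast_eq_intCast_iff_dvd_sub]
  norm_num
  exact ⟨fun h => by omega, fun h => by omega⟩

theorem red_neg (x : Fin 24 → ℤ) : red (-x) = red x :=
  red_eq_iff.2 fun i => by simp only [Pi.sub_apply, Pi.neg_apply]; omega

theorem q_neg (x : Fin 24 → ℤ) : q B (-x) = q B x := by
  simp [q, Matrix.mulVec_neg]

theorem sym_dot (hsymm : B.IsSymm) (x y : Fin 24 → ℤ) : x ⬝ᵥ (B *ᵥ y) = y ⬝ᵥ (B *ᵥ x) := by
  rw [Matrix.dotProduct_mulVec, dotProduct_comm, ← Matrix.mulVec_transpose, hsymm.eq]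

theorem q_add (hsymm : B.IsSymm) (x y : Fin 24 → ℤ) :
    q B (x + y) = q B x + 2 * (x ⬝ᵥ (B *ᵥ y)) + q B y := by
  simp only [q, Matrix.mulVec_add, add_dotProduct, dotProduct_add, sym_dot hsymm y x]
  ring

theorem q_sub (hsymm : B.IsSymm) (x y : Fin 24 → ℤ) :
    q B (x - y) = q B x - 2 * (x ⬝ᵥ (B *ᵥ y)) + q B y := by
  rw [sub_eq_add_neg, q_add hsymm, q_neg, Matrix.mulVec_neg, dotProduct_neg]
  ring

/-- Two congruent vectors of norm at most 8 are opposite, equal, or orthogonal of norm 8. -/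
theorem congr_small (hsymm : B.IsSymm) (hmin : ∀ z : Fin 24 → ℤ, z ≠ 0 → 4 ≤ q B z) {x y : Fin 24 → ℤ}
    (h : red x = red y) (hne : y ≠ x) (hne' : y ≠ -x) (hx : q B x ≤ 8) (hy : q B y ≤ 8) :
    q B x = 8 ∧ q B y = 8 ∧ x ⬝ᵥ (B *ᵥ y) = 0 := by
  have hd := red_eq_iff.1 h
  choose z hz using fun i => hd i
  have e1 : x - y = z + z := funext fun i => by rw [hz i, Pi.add_apply]; ring
  have e2 : x + y = (z + y) + (z + y) := by
    have : x = z + z + y := by rw [← e1, sub_add_cancel]
    rw [this]; abel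
  have n1 : 4 ≤ q B z := hmin z fun e => hne (by rw [e, add_zero, sub_eq_zero] at e1; exact e1.symm)
  have n2 : 4 ≤ q B (z + y) := hmin _ fun e => hne' (by rw [e, add_zero] at e2; exact eq_neg_of_add_eq_zero_right e2)
  have d : ∀ w, q B (w + w) = 4 * q B w := fun w => by
    rw [q_add hsymm]; simp only [q]; ring
  have f1 := q_sub hsymm x y
  have f2 := q_add hsymm x y
  rw [e1, d] at f1
  rw [e2, d] at f2
  omega

theorem card_class_le (hsymm : B.IsSymm) (hmin : ∀ z : Fin 24 → ℤ, z ≠ 0 → 4 ≤ q B z)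
    (F : Finset (Fin 24 → ℤ)) (hF : ∀ x ∈ F, q B x = 8) (hc : ∀ x ∈ F, ∀ y ∈ F, red x = red y) :
    F.card ≤ 48 := by
  classical
  let f : (Fin 24 → ℤ) → Finset (Fin 24 → ℤ) := fun x => {x, -x}
  have hle : F.card ≤ 2 * (F.image f).card := by
    refine Finset.card_le_mul_card_image F 2 fun p hp => ?_
    obtain ⟨x, -, rfl⟩ := Finset.mem_image.1 hp
    refine le_trans (Finset.card_le_card (t := f x) fun y hy => ?_) Finset.card_le_two
    have e := (Finset.mem_filter.1 hy).2
    rw [← e]
    exact Finset.mem_insert_self _ _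
  have hrep : ∀ p : F.image f, ∃ x ∈ F, f x = p := fun p => Finset.mem_image.1 p.2
  choose r hr hr' using hrep
  have horth : ∀ p p', p ≠ p' → r p ⬝ᵥ (B *ᵥ r p') = 0 := by
    intro p p' hne
    refine (congr_small hsymm hmin (hc _ (hr p) _ (hr p')) ?_ ?_ (hF _ (hr p)).le (hF _ (hr p')).le).2.2
    · intro e
      exact hne (Subtype.ext (by rw [← hr' p, ← hr' p', e]))
    · intro e
      refine hne (Subtype.ext ?_)
      rw [← hr' p, ← hr' p', e]
      simp only [f, neg_neg]
      exact Finset.pair_comm _ _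
  have hli : LinearIndependent ℤ r := by
    rw [Fintype.linearIndependent_iff]
    intro c hc' p
    have := congrArg (fun w => w ⬝ᵥ (B *ᵥ r p)) hc'
    simp only [sum_dotProduct, smul_dotProduct, zero_dotProduct, smul_eq_mul] at this
    rw [Finset.sum_eq_single p (fun b _ hb => by rw [horth b p hb, mul_zero])
      (fun h => absurd (Finset.mem_univ p) h)] at this
    rcases mul_eq_zero.1 this with h | h
    · exact h
    · have h8 : r p ⬝ᵥ (B *ᵥ r p) = 8 := hF _ (hr p)
      omega
  have := hli.fintype_card_le_finrank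
  rw [Module.finrank_fin_fun, Fintype.card_coe] at this
  omega

/-- All classes containing a vector of norm 8 have 48 of them. -/
theorem class_card (hsymm : B.IsSymm) (hpos : ∀ x : Fin 24 → ℤ, x ≠ 0 → 0 < q B x)
    (heven : ∀ x : Fin 24 → ℤ, (2 : ℤ) ∣ q B x) (h2 : ∀ x : Fin 24 → ℤ, q B x ≠ 2)
    (h4 : {x : Fin 24 → ℤ | q B x = 4}.ncard = 196560) (h6 : {x : Fin 24 → ℤ | q B x = 6}.ncard = 16773120)
    (h8 : {x : Fin 24 → ℤ | q B x = 8}.ncard = 398034000) (x : Fin 24 → ℤ) (hx : q B x = 8) :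
    {y : Fin 24 → ℤ | q B y = 8 ∧ red y = red x}.ncard = 48 := by
  classical
  have hmin : ∀ z : Fin 24 → ℤ, z ≠ 0 → 4 ≤ q B z := fun z hz => by
    have := hpos z hz; have := heven z; have := h2 z
    omega
  have fin : ∀ k : ℤ, {x : Fin 24 → ℤ | q B x = k}.ncard ≠ 0 → {x : Fin 24 → ℤ | q B x = k}.Finite :=
    fun k h => Set.finite_of_ncard_ne_zero h
  set S4 := (fin 4 (by rw [h4]; norm_num)).toFinset with hS4
  set S6 := (fin 6 (by rw [h6]; norm_num)).toFinset with hS6
  set S8 := (fin 8 (by rw [h8]; norm_num)).toFinset with hS8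
  have c4 : S4.card = 196560 := by rw [hS4, ← Set.ncard_eq_toFinset_card _ _, h4]
  have c6 : S6.card = 16773120 := by rw [hS6, ← Set.ncard_eq_toFinset_card _ _, h6]
  have c8 : S8.card = 398034000 := by rw [hS8, ← Set.ncard_eq_toFinset_card _ _, h8]
  have m4 : ∀ {y}, y ∈ S4 ↔ q B y = 4 := fun {y} => by simp [hS4]
  have m6 : ∀ {y}, y ∈ S6 ↔ q B y = 6 := fun {y} => by simp [hS6]
  have m8 : ∀ {y}, y ∈ S8 ↔ q B y = 8 := fun {y} => by simp [hS8]
  have two : ∀ (k : ℤ) (S : Finset (Fin 24 → ℤ)), (∀ y, y ∈ S ↔ q B y = k) → 0 < k → k < 8 →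
      S.card = 2 * (S.image red).card := by
    intro k S hS hk0 hk
    rw [Finset.card_eq_sum_card_image red S, Finset.sum_congr rfl (g := fun _ => 2), Finset.sum_const, smul_eq_mul,
      mul_comm]
    intro c hc
    obtain ⟨y, hy, rfl⟩ := Finset.mem_image.1 hc
    rw [hS] at hy
    have hy0 : y ≠ -y := by
      intro e
      have : y = 0 := funext fun i => by
        have h := congrFun e i
        simp only [Pi.neg_apply, Pi.zero_apply] at h ⊢
        omega
      rw [this] at hy
      simp [q] at hy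
      omega
    have : S.filter (fun w => red w = red y) = {y, -y} := by
      ext w
      simp only [Finset.mem_filter, Finset.mem_insert, Finset.mem_singleton, hS]
      refine ⟨fun ⟨hw, e⟩ => ?_, ?_⟩
      · by_contra hne
        push Not at hne
        have := congr_small hsymm hmin e.symm hne.1 hne.2 (by omega) (by omega)
        omega
      · rintro (rfl | rfl)
        · exact ⟨hy, rfl⟩
        · exact ⟨by rw [q_neg, hy], red_neg y⟩
    rw [this, Finset.card_pair hy0]
  have e4 := two 4 S4 (fun _ => m4) (by norm_num) (by norm_num)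
  have e6 := two 6 S6 (fun _ => m6) (by norm_num) (by norm_num)
  have hzero : ∀ y, q B y ≤ 8 → 0 < q B y → red y ≠ 0 := by
    intro y hy hy' e
    have hd : ∀ i, (2 : ℤ) ∣ y i := fun i => by
      have := congrFun e i
      rw [red, Pi.zero_apply, ZMod.intCast_zmod_eq_zero_iff_dvd] at this
      exact_mod_cast this
    choose z hz using hd
    have e1 : y = z + z := funext fun i => by rw [hz i, Pi.add_apply]; ring
    have hz0 : z ≠ 0 := fun h => by rw [e1, h] at hy'; simp [q] at hy'
    have := hmin z hz0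
    rw [e1, q_add hsymm] at hy
    change q B z + 2 * q B z + q B z ≤ 8 at hy
    omega
  have disj : ∀ {a b : ℤ} {S T : Finset (Fin 24 → ℤ)}, (∀ y, y ∈ S ↔ q B y = a) → (∀ y, y ∈ T ↔ q B y = b) →
      a ≠ b → a ≤ 8 → b ≤ 8 → Disjoint (S.image red) (T.image red) := by
    intro a b S T hS hT hab ha hb
    rw [Finset.disjoint_left]
    intro c hc hc'
    obtain ⟨y, hy, rfl⟩ := Finset.mem_image.1 hc
    obtain ⟨w, hw, e⟩ := Finset.mem_image.1 hc'
    rw [hS] at hy; rw [hT] at hw
    have n1 : w ≠ y := fun h => hab (by rw [← hy, ← hw, h])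
    have n2 : w ≠ -y := fun h => hab (by rw [← hy, ← hw, h, q_neg])
    have := congr_small hsymm hmin e.symm n1 n2 (by omega) (by omega)
    omega
  have htot : (S4.image red).card + (S6.image red).card + (S8.image red).card ≤ 16777215 := by
    rw [← Finset.card_union_of_disjoint (disj (fun _ => m4) (fun _ => m6) (by norm_num) (by norm_num) (by norm_num)),
      ← Finset.card_union_of_disjoint (Finset.disjoint_union_left.2
        ⟨disj (fun _ => m4) (fun _ => m8) (by norm_num) (by norm_num) (by norm_num),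
          disj (fun _ => m6) (fun _ => m8) (by norm_num) (by norm_num) (by norm_num)⟩)]
    refine le_trans (Finset.card_le_card (t := (Finset.univ : Finset (Fin 24 → ZMod 2)).erase 0) fun c hc => ?_) ?_
    · refine Finset.mem_erase.2 ⟨?_, Finset.mem_univ _⟩
      simp only [Finset.mem_union, Finset.mem_image, m4, m6, m8] at hc
      rcases hc with (⟨y, hy, rfl⟩ | ⟨y, hy, rfl⟩) | ⟨y, hy, rfl⟩ <;>
        exact hzero y (by omega) (by omega)
    · rw [Finset.card_erase_of_mem (Finset.mem_univ _), Finset.card_univ, Fintype.card_fun, ZMod.card,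
        Fintype.card_fin]
      norm_num
  have hle : ∀ c ∈ S8.image red, (S8.filter fun w => red w = c).card ≤ 48 := fun c _ =>
    card_class_le hsymm hmin _ (fun y hy => m8.1 (Finset.mem_filter.1 hy).1)
      fun y hy w hw => (Finset.mem_filter.1 hy).2.trans (Finset.mem_filter.1 hw).2.symm
  have hsum := Finset.card_eq_sum_card_image red S8
  have hxc : red x ∈ S8.image red := Finset.mem_image_of_mem _ (m8.2 hx)
  have heq : (S8.filter fun w => red w = red x).card = 48 := by
    by_contra hne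
    have hlt : ∑ c ∈ S8.image red, (S8.filter fun w => red w = c).card < ∑ _c ∈ S8.image red, 48 :=
      Finset.sum_lt_sum hle ⟨_, hxc, lt_of_le_of_ne (hle _ hxc) hne⟩
    rw [← hsum, Finset.sum_const, smul_eq_mul, c8] at hlt
    omega
  rw [← heq, ← Set.ncard_coe_finset]
  congr 1
  ext y
  simp [m8]

end Cfsg.Lib.CosetCount
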